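import Cfsg.Agent.Lib.Helper38.CHO.B2Lib

/-!
# CHO package [ST-B2-1] (S1083): the second reduction step for `x_0^2 + x_1 y_1 + x_2 y_2`
-/

set_option autoImplicit false

namespace Cfsg.Agent.Lib.Helper38.CHO

open Matrix Cfsg.Agent.Lib.Helper99.CHO

universe u

variable {K : Type u} [Field K]

theorem b21_step1 (hU : PkgUnitB2.{u}) (v : I5 → K) (hx1 : v (Sum.inr (Sum.inl 0)) = 0)
    (hy1 : v (Sum.inr (Sum.inr 0)) = 0) (hQv : Cfsg.quadFormOdd 2 K v = 0) (hv : v ≠ 0) :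
    ∃ M : Matrix I5 I5 K, Good M ∧ M *ᵥ eB K 0 = eB K 0 ∧ M *ᵥ fB K 0 = fB K 0 ∧
      ∃ b : K, b ≠ 0 ∧ M *ᵥ v = b • eB K 1 := by
  have key : ∀ v : I5 → K, v (Sum.inr (Sum.inl 0)) = 0 → v (Sum.inr (Sum.inr 0)) = 0 →
      Cfsg.quadFormOdd 2 K v = 0 → v (Sum.inr (Sum.inl 1)) ≠ 0 →
      ∃ M : Matrix I5 I5 K, Good M ∧ M *ᵥ eB K 0 = eB K 0 ∧ M *ᵥ fB K 0 = fB K 0 ∧
        ∃ b : K, b ≠ 0 ∧ M *ᵥ v = b • eB K 1 := by
    intro v hx1 hy1 hQv hx2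
    refine ⟨EB2mat K 2 (-(v (Sum.inl ())) / v (Sum.inr (Sum.inl 1))), good_E hU 2 (by norm_num) _,
      E2_e1 _, E2_f1 _, v (Sum.inr (Sum.inl 1)), hx2, ?_⟩
    have hQ' := E2_Q (-(v (Sum.inl ())) / v (Sum.inr (Sum.inl 1))) v
    have h0 : (EB2mat K 2 (-(v (Sum.inl ())) / v (Sum.inr (Sum.inl 1))) *ᵥ v) (Sum.inl ()) = 0 := by
      rw [E2_x0]
      field_simp
      ring
    have h2 : (EB2mat K 2 (-(v (Sum.inl ())) / v (Sum.inr (Sum.inl 1))) *ᵥ v) (Sum.inr (Sum.inl 1)) =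
        v (Sum.inr (Sum.inl 1)) := E2_x2 _ _
    have h1 : (EB2mat K 2 (-(v (Sum.inl ())) / v (Sum.inr (Sum.inl 1))) *ᵥ v) (Sum.inr (Sum.inl 0)) =
        0 := by rw [E2_x1, hx1]
    have h3 : (EB2mat K 2 (-(v (Sum.inl ())) / v (Sum.inr (Sum.inl 1))) *ᵥ v) (Sum.inr (Sum.inr 0)) =
        0 := by rw [E2_y1, hy1]
    have h4 : (EB2mat K 2 (-(v (Sum.inl ())) / v (Sum.inr (Sum.inl 1))) *ᵥ v) (Sum.inr (Sum.inr 1)) =
        0 := by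
      rw [hQv, Q_eq, h0, h1, h2, h3] at hQ'
      have e : v (Sum.inr (Sum.inl 1)) *
          (EB2mat K 2 (-(v (Sum.inl ())) / v (Sum.inr (Sum.inl 1))) *ᵥ v) (Sum.inr (Sum.inr 1)) =
          0 := by linear_combination hQ'
      exact (mul_eq_zero.1 e).resolve_left hx2
    apply vec_ext <;> simp [h0, h1, h2, h3, h4, eB]
  by_cases hx2 : v (Sum.inr (Sum.inl 1)) = 0
  · have hx0 : v (Sum.inl ()) = 0 := by
      rw [Q_eq, hx2, hx1] at hQv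
      have e : v (Sum.inl ()) ^ 2 = 0 := by linear_combination hQv
      exact pow_eq_zero_iff (two_ne_zero) |>.1 e
    have hy2 : v (Sum.inr (Sum.inr 1)) ≠ 0 := by
      intro h
      apply hv
      apply vec_ext <;> simp [hx0, hx1, hx2, hy1, h]
    obtain ⟨M, hM, hMe, hMf, b, hb, hMv⟩ := key (EB2mat K 5 1 *ᵥ v) (by rw [E5_x1, hx1])
      (by rw [E5_y1, hy1]) (by rw [E5_Q, hQv]) (by rw [E5_x2, hx2, hx0]; simpa using hy2)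
    refine ⟨M * EB2mat K 5 1, hM.mul (good_E hU 5 (by norm_num) 1), ?_, ?_, b, hb, ?_⟩
    · rw [← Matrix.mulVec_mulVec, E5_e1, hMe]
    · rw [← Matrix.mulVec_mulVec, E5_f1, hMf]
    · rw [← Matrix.mulVec_mulVec, hMv]
  · exact key v hx1 hy1 hQv hx2

theorem b21_step2 (hU : PkgUnitB2.{u}) (w : I5 → K) (b : K) (hb : b ≠ 0)
    (hx1 : w (Sum.inr (Sum.inl 0)) = 0) (hy1 : w (Sum.inr (Sum.inr 0)) = 0)
    (hy2 : w (Sum.inr (Sum.inr 1)) = b⁻¹) (hQw : Cfsg.quadFormOdd 2 K w = 0) :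
    ∃ M : Matrix I5 I5 K, Good M ∧ M *ᵥ eB K 0 = eB K 0 ∧ M *ᵥ fB K 0 = fB K 0 ∧
      M *ᵥ eB K 1 = eB K 1 ∧ M *ᵥ w = b⁻¹ • fB K 1 := by
  refine ⟨EB2mat K 5 (w (Sum.inl ()) * b), good_E hU 5 (by norm_num) _, E5_e1 _, E5_f1 _,
    E5_e2 _, ?_⟩
  have hQ' := E5_Q (w (Sum.inl ()) * b) w
  have h0 : (EB2mat K 5 (w (Sum.inl ()) * b) *ᵥ w) (Sum.inl ()) = 0 := by
    rw [E5_x0, hy2]
    field_simp
    ring
  have h1 : (EB2mat K 5 (w (Sum.inl ()) * b) *ᵥ w) (Sum.inr (Sum.inl 0)) = 0 := by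
    rw [E5_x1, hx1]
  have h3 : (EB2mat K 5 (w (Sum.inl ()) * b) *ᵥ w) (Sum.inr (Sum.inr 0)) = 0 := by
    rw [E5_y1, hy1]
  have h4 : (EB2mat K 5 (w (Sum.inl ()) * b) *ᵥ w) (Sum.inr (Sum.inr 1)) = b⁻¹ := by
    rw [E5_y2, hy2]
  have h2 : (EB2mat K 5 (w (Sum.inl ()) * b) *ᵥ w) (Sum.inr (Sum.inl 1)) = 0 := by
    rw [hQw, Q_eq, h0, h1, h3, h4] at hQ'
    have e : (EB2mat K 5 (w (Sum.inl ()) * b) *ᵥ w) (Sum.inr (Sum.inl 1)) * b⁻¹ = 0 := by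
      linear_combination hQ'
    exact (mul_eq_zero.1 e).resolve_right (inv_ne_zero hb)
  apply vec_ext <;> simp [h0, h1, h2, h3, h4, fB]

/-- [ST-B2-1] -/
theorem pkgStB21_of (hU : PkgUnitB2.{u}) : PkgStB2.{u} 1 := by
  intro K _ g hg hm
  have hQ : ∀ x, Cfsg.quadFormOdd 2 K ((g : Matrix I5 I5 K) *ᵥ x) = Cfsg.quadFormOdd 2 K x :=
    fun x => hg x x
  obtain ⟨a, ha, he1, hf1⟩ := hm 0 (by decide)
  obtain ⟨v, hvdef⟩ : ∃ v, v = (g : Matrix I5 I5 K) *ᵥ eB K 1 := ⟨_, rfl⟩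
  have hQv : Cfsg.quadFormOdd 2 K v = 0 := by
    rw [hvdef, hQ, Q_eq]
    simp [eB]
  have hvy1 : v (Sum.inr (Sum.inr 0)) = 0 := by
    have e := hQ (eB K 1 + eB K 0)
    rw [Matrix.mulVec_add, ← hvdef, he1, Q_add_e1, hQv] at e
    have e2 : Cfsg.quadFormOdd 2 K (eB K 1 + eB K 0) = 0 := by
      rw [Q_eq]
      simp [eB]
    rw [e2, zero_add] at e
    exact (mul_eq_zero.1 e).resolve_left ha
  have hvx1 : v (Sum.inr (Sum.inl 0)) = 0 := by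
    have e := hQ (eB K 1 + fB K 0)
    rw [Matrix.mulVec_add, ← hvdef, hf1, Q_add_f1, hQv] at e
    have e2 : Cfsg.quadFormOdd 2 K (eB K 1 + fB K 0) = 0 := by
      rw [Q_eq]
      simp [eB, fB]
    rw [e2, zero_add] at e
    exact (mul_eq_zero.1 e).resolve_left (inv_ne_zero ha)
  have hvne : v ≠ 0 := by
    intro h0
    have e := hQ (eB K 1 + fB K 1)
    rw [Matrix.mulVec_add, ← hvdef, h0, zero_add, hQ, Q_eq, Q_eq] at e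
    simp [eB, fB] at e
  obtain ⟨M1, hM1, hM1e, hM1f, b, hb, hM1v⟩ := b21_step1 hU v hvx1 hvy1 hQv hvne
  obtain ⟨w, hwdef⟩ : ∃ w, w = M1 *ᵥ ((g : Matrix I5 I5 K) *ᵥ fB K 1) := ⟨_, rfl⟩
  have hQ' : ∀ x, Cfsg.quadFormOdd 2 K (M1 *ᵥ ((g : Matrix I5 I5 K) *ᵥ x)) =
      Cfsg.quadFormOdd 2 K x := fun x => by rw [hM1.2, hQ]
  have hQw : Cfsg.quadFormOdd 2 K w = 0 := by
    rw [hwdef, hQ', Q_eq]
    simp [fB]
  have hwy1 : w (Sum.inr (Sum.inr 0)) = 0 := by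
    have e := hQ' (fB K 1 + eB K 0)
    rw [Matrix.mulVec_add, Matrix.mulVec_add, ← hwdef, he1, Matrix.mulVec_smul, hM1e, Q_add_e1,
      hQw] at e
    have e2 : Cfsg.quadFormOdd 2 K (fB K 1 + eB K 0) = 0 := by
      rw [Q_eq]
      simp [eB, fB]
    rw [e2, zero_add] at e
    exact (mul_eq_zero.1 e).resolve_left ha
  have hwx1 : w (Sum.inr (Sum.inl 0)) = 0 := by
    have e := hQ' (fB K 1 + fB K 0)
    rw [Matrix.mulVec_add, Matrix.mulVec_add, ← hwdef, hf1, Matrix.mulVec_smul, hM1f, Q_add_f1,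
      hQw] at e
    have e2 : Cfsg.quadFormOdd 2 K (fB K 1 + fB K 0) = 0 := by
      rw [Q_eq]
      simp [fB]
    rw [e2, zero_add] at e
    exact (mul_eq_zero.1 e).resolve_left (inv_ne_zero ha)
  have hwy2 : w (Sum.inr (Sum.inr 1)) = b⁻¹ := by
    have e := hQ' (fB K 1 + eB K 1)
    rw [Matrix.mulVec_add, Matrix.mulVec_add, ← hwdef, ← hvdef, hM1v, Q_add_e2, hQw] at e
    have e2 : Cfsg.quadFormOdd 2 K (fB K 1 + eB K 1) = 1 := by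
      rw [Q_eq]
      simp [eB, fB]
    rw [e2, zero_add] at e
    exact eq_inv_of_mul_eq_one_right e
  obtain ⟨M2, hM2, hM2e1, hM2f1, hM2e2, hM2w⟩ := b21_step2 hU w b hb hwx1 hwy1 hwy2 hQw
  obtain ⟨ρ, hρ, hρM⟩ := (hM2.mul hM1).1
  refine ⟨ρ, hρ, ?_⟩
  have hcoe : ((ρ * g : GL I5 K) : Matrix I5 I5 K) = M2 * M1 * (g : Matrix I5 I5 K) := by
    rw [Units.val_mul, hρM]
  intro i
  revert i
  rw [Fin.forall_fin_two]
  refine ⟨fun _ => ⟨a, ha, ?_, ?_⟩, fun _ => ⟨b, hb, ?_, ?_⟩⟩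
  · rw [hcoe, ← Matrix.mulVec_mulVec, ← Matrix.mulVec_mulVec, he1, Matrix.mulVec_smul,
      Matrix.mulVec_smul, hM1e, hM2e1]
  · rw [hcoe, ← Matrix.mulVec_mulVec, ← Matrix.mulVec_mulVec, hf1, Matrix.mulVec_smul,
      Matrix.mulVec_smul, hM1f, hM2f1]
  · rw [hcoe, ← Matrix.mulVec_mulVec, ← Matrix.mulVec_mulVec, ← hvdef, hM1v, Matrix.mulVec_smul,
      hM2e2]
  · rw [hcoe, ← Matrix.mulVec_mulVec, ← Matrix.mulVec_mulVec, ← hwdef, hM2w]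

end Cfsg.Agent.Lib.Helper38.CHO
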