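import Cfsg.Agent.Lib.Helper38.CHO.B2Lib

/-!
# CHO packages [UNIT-B2] and [ISO-B2] (S1083), from the coordinate calculus of `B2Lib`
-/

set_option autoImplicit false

namespace Cfsg.Agent.Lib.Helper38.CHO

open Matrix Cfsg.Agent.Lib.Helper99.CHO

universe u

/-- [ISO-B2] -/
theorem pkgIsoB2 : PkgIsoB2.{u} := by
  intro K _ r t hr v
  interval_cases r
  · exact E0_Q t v
  · exact E1_Q t v
  · exact E2_Q t v
  · exact E3_Q t v
  · exact E4_Q t v
  · exact E5_Q t v
  · exact E6_Q t v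
  · exact E7_Q t v

/-- [UNIT-B2] -/
theorem pkgUnitB2 : PkgUnitB2.{u} := by
  intro K _ r t hr
  rw [← Matrix.mulVec_injective_iff_isUnit]
  have h : ∀ v : I5 → K, EB2mat K r (-t) *ᵥ (EB2mat K r t *ᵥ v) = v := by
    intro v
    interval_cases r
    · apply vec_ext <;> simp only [E0_x0, E0_x1, E0_x2, E0_y1, E0_y2] <;> ring
    · apply vec_ext <;> simp only [E1_x0, E1_x1, E1_x2, E1_y1, E1_y2] <;> ring
    · apply vec_ext <;> simp only [E2_x0, E2_x1, E2_x2, E2_y1, E2_y2] <;> ring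
    · apply vec_ext <;> simp only [E3_x0, E3_x1, E3_x2, E3_y1, E3_y2] <;> ring
    · apply vec_ext <;> simp only [E4_x0, E4_x1, E4_x2, E4_y1, E4_y2] <;> ring
    · apply vec_ext <;> simp only [E5_x0, E5_x1, E5_x2, E5_y1, E5_y2] <;> ring
    · apply vec_ext <;> simp only [E6_x0, E6_x1, E6_x2, E6_y1, E6_y2] <;> ring
    · apply vec_ext <;> simp only [E7_x0, E7_x1, E7_x2, E7_y1, E7_y2] <;> ring
  exact Function.LeftInverse.injective h

end Cfsg.Agent.Lib.Helper38.CHO
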